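import Cfsg.Agent.H614.Rank

/-!
# The sharp bound for the `p`-regular rank of a colour class

`Φ γ`, `γ` of a given colour and weight `w`, lie in the span of vectors indexed by the multisets of
pairs `(i, r)` with `1 ≤ i < p`, `r ≥ 1`, `∑ r = w` (i.e. by the `(p-1)`-multipartitions of `w`).
-/

set_option autoImplicit false
set_option linter.unusedSectionVars false

namespace Cfsg.Agent.H614

open Finset Cfsg Cfsg.Agent.Characters.Core

universe u

variable {m : ℕ} {W : Type*} [AddCommGroup W] [Module ℂ W] {Φ : (Fin m → ℕ) → W}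

theorem Psi_comm (Φ : (Fin m → ℕ) → W) (p i r i' r' : ℕ) :
    Psi (Psi Φ p i r) p i' r' = Psi (Psi Φ p i' r') p i r := by
  funext γ
  have key : ∀ i r i' r' : ℕ, Psi (Psi Φ p i r) p i' r' γ =
      ∑ k, ∑ l, if γ k % p = i' ∧ γ l % p = i then Φ (up (up γ k (p * r')) l (p * r)) else 0 := by
    intro i r i' r'
    unfold Psi
    refine Finset.sum_congr rfl fun k _ => ?_
    by_cases hk : γ k % p = i'
    · rw [if_pos hk]
      refine Finset.sum_congr rfl fun l _ => ?_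
      rw [up_mod (dvd_mul_right p r') γ k l]
      simp [hk]
    · rw [if_neg hk]
      simp [hk]
  rw [key, key, Finset.sum_comm]
  refine Finset.sum_congr rfl fun l _ => Finset.sum_congr rfl fun k _ => ?_
  rw [up_up_comm]
  refine if_congr ?_ rfl rfl
  exact and_comm

/-- One operator. -/
def psiOp (W : Type*) [AddCommGroup W] (m p : ℕ) (x : ℕ × ℕ) (Φ : (Fin m → ℕ) → W) :
    (Fin m → ℕ) → W := Psi Φ p x.1 x.2

instance psiOp_leftCommutative (p : ℕ) : LeftCommutative (psiOp W m p) :=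
  ⟨fun x y Φ => Psi_comm Φ p y.1 y.2 x.1 x.2⟩

/-- Iterated raising operators. -/
def PsiM (p : ℕ) (M : Multiset (ℕ × ℕ)) (Φ : (Fin m → ℕ) → W) : (Fin m → ℕ) → W :=
  M.foldr (psiOp W m p) Φ

theorem PsiM_zero (p : ℕ) : PsiM p 0 Φ = Φ := rfl

theorem PsiM_cons (p : ℕ) (x : ℕ × ℕ) (M : Multiset (ℕ × ℕ)) :
    PsiM p (x ::ₘ M) Φ = Psi (PsiM p M Φ) p x.1 x.2 := by
  unfold PsiM
  rw [Multiset.foldr_cons]; rfl

theorem PsiM_Psi (p i r : ℕ) (M : Multiset (ℕ × ℕ)) :
    PsiM p M (Psi Φ p i r) = PsiM p ((i, r) ::ₘ M) Φ := by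
  induction M using Multiset.induction_on with
  | empty => rw [PsiM_cons, PsiM_zero, PsiM_zero]
  | cons x M ih => rw [PsiM_cons, ih, Multiset.cons_swap, PsiM_cons p x]

theorem PsiM_alt (hΦ : Alt Φ) (p : ℕ) (M : Multiset (ℕ × ℕ)) : Alt (PsiM p M Φ) := by
  induction M using Multiset.induction_on with
  | empty => exact hΦ
  | cons x M ih => rw [PsiM_cons]; exact Psi_alt ih p x.1 x.2

/-- The index set: multisets of pairs `(i, r)` with `1 ≤ i < p`, `r ≥ 1`, `∑ r = w`. -/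
def MM (p w : ℕ) : Set (Multiset (ℕ × ℕ)) :=
  {M | (∀ x ∈ M, 1 ≤ x.1 ∧ x.1 < p ∧ 0 < x.2) ∧ (M.map Prod.snd).sum = w}

theorem cons_mem_MM {p w i r : ℕ} (hi : 1 ≤ i) (hip : i < p) (hr : 0 < r) (hrw : r ≤ w)
    {M : Multiset (ℕ × ℕ)} (hM : M ∈ MM p (w - r)) : (i, r) ::ₘ M ∈ MM p w := by
  obtain ⟨h1, h2⟩ := hM
  refine ⟨?_, ?_⟩
  · intro x hx
    rcases Multiset.mem_cons.mp hx with rfl | hx
    · exact ⟨hi, hip, hr⟩
    · exact h1 x hx
  · rw [Multiset.map_cons, Multiset.sum_cons, h2]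
    omega

theorem mem_span_PsiM {p : ℕ} (hp : 0 < p) (w : ℕ) (β₀ : Fin m → ℕ) :
    ∀ Φ : (Fin m → ℕ) → W, Alt Φ → UpRel p Φ →
      ∀ γ : Fin m → ℕ, SameCol p β₀ γ → ∑ j, γ j / p = w + npairs p γ →
        Φ γ ∈ Submodule.span ℂ {v : W | ∃ M ∈ MM p w, ∃ δ : Fin m → ℕ, SameCol p β₀ δ ∧
          ∑ j, δ j / p = npairs p δ ∧ v = PsiM p M Φ δ} := by
  induction w using Nat.strong_induction_on with
  | _ w ih =>
  intro Φ hΦ hR γ hγ hw'
  rcases Nat.eq_zero_or_pos w with rfl | hw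
  · refine Submodule.subset_span ⟨0, ⟨by simp, by simp⟩, γ, hγ, by simpa using hw', rfl⟩
  · have hmem : ∀ r, r < w → ∀ i, i < p → ∀ δ : Fin m → ℕ, SameCol p β₀ δ →
          ∑ j, δ j / p = (w - (r + 1)) + npairs p δ → Psi Φ p i (r + 1) δ ∈
          Submodule.span ℂ {v : W | ∃ M ∈ MM p w, ∃ δ : Fin m → ℕ, SameCol p β₀ δ ∧
          ∑ j, δ j / p = npairs p δ ∧ v = PsiM p M Φ δ} := by
        intro r hr i hi δ hδ hδ'
        have hpos : ∀ i, 1 ≤ i → i < p → Psi Φ p i (r + 1) δ ∈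
          Submodule.span ℂ {v : W | ∃ M ∈ MM p w, ∃ δ : Fin m → ℕ, SameCol p β₀ δ ∧
          ∑ j, δ j / p = npairs p δ ∧ v = PsiM p M Φ δ} := by
          intro i h1 hi
          refine Submodule.span_mono ?_ (ih (w - (r + 1)) (by omega) _ (Psi_alt hΦ p i (r + 1))
            (Psi_upRel hR i (r + 1)) δ hδ hδ')
          rintro v ⟨M, hM, ε, hε, hε', rfl⟩
          exact ⟨(i, r + 1) ::ₘ M, cons_mem_MM h1 hi (Nat.succ_pos r) (by omega) hM, ε, hε, hε',
            by rw [PsiM_Psi]⟩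
        rcases Nat.eq_zero_or_pos i with rfl | h1
        · have h2 := sum_Psi hp hR (Nat.succ_pos r) δ
          rw [Finset.range_eq_Ico, Finset.sum_eq_sum_Ico_succ_bot hp] at h2
          rw [Nat.succ_eq_add_one] at h2
          rw [eq_neg_of_add_eq_zero_left h2]
          apply Submodule.neg_mem
          refine Submodule.sum_mem _ fun i hi => ?_
          have := Finset.mem_Ico.mp hi
          exact hpos i (by omega) this.2
        · exact hpos i h1 hi
    have hsum := energy_Psi hΦ γ hw'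
    have h3 : (w : ℂ) • Φ γ ∈
          Submodule.span ℂ {v : W | ∃ M ∈ MM p w, ∃ δ : Fin m → ℕ, SameCol p β₀ δ ∧
          ∑ j, δ j / p = npairs p δ ∧ v = PsiM p M Φ δ} := by
        rw [Nat.cast_smul_eq_nsmul, ← hsum]
        refine Submodule.sum_mem _ fun j _ => Submodule.sum_mem _ fun r hr => ?_
        have hr1 := mem_range.mp hr
        have hle : p * (r + 1) ≤ γ j :=
          le_trans (Nat.mul_le_mul_left _ hr1) (Nat.mul_div_le _ _)
        by_cases hrw : r < w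
        · apply hmem r hrw _ (Nat.mod_lt _ hp)
          · exact hγ.trans (sameCol_dn (dvd_mul_right p _) γ j hle).symm
          · rw [npairs_of_mod (dn_mod (dvd_mul_right p (r + 1)) γ j hle)]
            have := sum_div_dn hp γ j hle
            omega
        · rw [(Psi_alt hΦ p (γ j % p) (r + 1)).eq_zero_of_not_injective two_torsion_module]
          · exact Submodule.zero_mem _
          · exact not_injective_dn hp hw' j hle (by omega)
    have h4 : ((w : ℂ)⁻¹ * (w : ℂ)) • Φ γ ∈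
          Submodule.span ℂ {v : W | ∃ M ∈ MM p w, ∃ δ : Fin m → ℕ, SameCol p β₀ δ ∧
          ∑ j, δ j / p = npairs p δ ∧ v = PsiM p M Φ δ} := by
        rw [mul_smul]; exact Submodule.smul_mem _ _ h3
    rwa [inv_mul_cancel₀ (by exact_mod_cast hw.ne'), one_smul] at h4

/-- **The sharp form of the rank bound**: the vectors `Φ γ`, `γ` of a given colour and weight `w`, lie
in the span of vectors `f M` indexed by `MM p w`. -/
theorem rank_mult {p : ℕ} (hp : 0 < p) (w : ℕ) (β₀ : Fin m → ℕ) (hΦ : Alt Φ) (hR : UpRel p Φ) :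
    ∃ f : Multiset (ℕ × ℕ) → W, ∀ γ : Fin m → ℕ, SameCol p β₀ γ → ∑ j, γ j / p = w + npairs p γ →
      Φ γ ∈ Submodule.span ℂ (f '' MM p w) := by
  by_cases hex : ∃ γ : Fin m → ℕ, Function.Injective γ ∧ SameCol p β₀ γ ∧
      ∑ j, γ j / p = npairs p γ
  · obtain ⟨γ₁, hinj, hc, h⟩ := hex
    refine ⟨fun M => PsiM p M Φ γ₁, fun γ hγ hγ' => ?_⟩
    have h1 := mem_span_PsiM hp w β₀ Φ hΦ hR γ hγ hγ'
    refine (Submodule.span_le.mpr ?_) h1
    rintro v ⟨M, hM, δ, hδ, hδ', rfl⟩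
    by_cases hi : Function.Injective δ
    · obtain ⟨σ, rfl⟩ := exists_perm_of_weight_zero hp hinj hi h hδ' (hc.symm.trans hδ)
      rw [PsiM_alt hΦ p M, ← Int.cast_smul_eq_zsmul ℂ]
      exact Submodule.smul_mem _ _ (Submodule.subset_span ⟨M, hM, rfl⟩)
    · rw [(PsiM_alt hΦ p M).eq_zero_of_not_injective two_torsion_module hi]
      exact Submodule.zero_mem _
  · refine ⟨fun _ => 0, fun γ hγ hγ' => ?_⟩
    have h1 := mem_span_PsiM hp w β₀ Φ hΦ hR γ hγ hγ'
    refine (Submodule.span_le.mpr ?_) h1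
    rintro v ⟨M, hM, δ, hδ, hδ', rfl⟩
    rw [(PsiM_alt hΦ p M).eq_zero_of_not_injective two_torsion_module
      (fun hi => hex ⟨δ, hi, hδ, hδ'⟩)]
    exact Submodule.zero_mem _

/-- For `p = 2` the index set is the set of partitions of `w`. -/
theorem rank_two (w : ℕ) (β₀ : Fin m → ℕ) (hΦ : Alt Φ) (hR : UpRel 2 Φ) :
    ∃ f : Nat.Partition w → W, ∀ γ : Fin m → ℕ, SameCol 2 β₀ γ →
      ∑ j, γ j / 2 = w + npairs 2 γ → Φ γ ∈ Submodule.span ℂ (Set.range f) := by
  obtain ⟨f, hf⟩ := rank_mult (p := 2) two_pos w β₀ hΦ hR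
  refine ⟨fun ν => f (ν.parts.map (fun r => (1, r))), fun γ hγ hγ' => ?_⟩
  refine Submodule.span_mono ?_ (hf γ hγ hγ')
  rintro v ⟨M, ⟨hM, hM'⟩, rfl⟩
  refine ⟨⟨M.map Prod.snd, ?_, hM'⟩, ?_⟩
  · intro i hi
    obtain ⟨x, hx, rfl⟩ := Multiset.mem_map.mp hi
    exact (hM x hx).2.2
  · simp only [Multiset.map_map]
    congr 1
    conv_rhs => rw [← Multiset.map_id M]
    refine Multiset.map_congr rfl fun x hx => ?_
    have := hM x hx
    simp only [Function.comp_apply, id]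
    ext
    · show 1 = x.1
      omega
    · rfl

/-- Composition with a linear map. -/
theorem alt_linear {W' : Type*} [AddCommGroup W'] [Module ℂ W'] (L : W →ₗ[ℂ] W') (hΦ : Alt Φ) :
    Alt (fun γ => L (Φ γ)) := by
  intro σ β
  show L (Φ (β ∘ σ)) = _
  rw [hΦ, map_zsmul]

theorem upRel_linear {W' : Type*} [AddCommGroup W'] [Module ℂ W'] (L : W →ₗ[ℂ] W') {p : ℕ}
    (hΦ : UpRel p Φ) : UpRel p (fun γ => L (Φ γ)) := by
  intro γ r hr
  show ∑ j, L (Φ (up γ j (p * r))) = 0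
  rw [← map_sum, hΦ γ r hr, map_zero]

end Cfsg.Agent.H614
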